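import Mathlib
import Cfsg.Agent.Lib.Helper46.Shult.C

set_option autoImplicit false
set_option linter.unusedSectionVars false
set_option linter.unusedVariables false

namespace Cfsg.Agent.Lib.Helper85.Gross

open scoped commutatorElement

variable {E : Type*} [Field E] {U : Type*} [AddCommGroup U] [Module E U]
  {Q : Type*} [Group Q] [Finite Q]

/-- [CW] a weight of the centre that is nontrivial on a prescribed element. -/
theorem exists_weight' [IsAlgClosed E] [FiniteDimensional E U] (ρ : Q →* Module.End E U)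
    (hcard : (Nat.card Q : E) ≠ 0) (z₁ : Q) (hz₁ : z₁ ∈ Subgroup.center Q) (hne : ρ z₁ ≠ 1) :
    ∃ (μ : Q → E) (v : U), v ≠ 0 ∧ (∀ z ∈ Subgroup.center Q, ρ z v = μ z • v) ∧ μ z₁ ≠ 1 := by
  classical
  set Z := Subgroup.center Q with hZ
  set o := orderOf z₁ with ho
  let Tr : Module.End E U := ∑ i ∈ Finset.range o, ρ (z₁ ^ i)
  have hcomm : ∀ z ∈ Z, ∀ g : Q, ρ z * ρ g = ρ g * ρ z := by
    intro z hz g
    rw [← map_mul, ← map_mul, (Subgroup.mem_center_iff.mp hz g)]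
  have hTr_apply : ∀ u, Tr u = ∑ i ∈ Finset.range o, ρ (z₁ ^ i) u := by
    intro u
    simp [Tr, LinearMap.sum_apply]
  have hTr_shift : ∀ z' ∈ Z, z' = z₁ → ∀ u, Tr (ρ z' u) = Tr u := by
    rintro z' hz' rfl u
    rw [hTr_apply, hTr_apply]
    have h1 : ∀ i, ρ (z' ^ i) (ρ z' u) = ρ (z' ^ (i + 1)) u := by
      intro i
      rw [pow_succ, map_mul]; rfl
    rw [Finset.sum_congr rfl (fun i _ => h1 i)]
    have h2 := Finset.sum_range_succ (fun i => ρ (z' ^ i) u) o
    have h3 := Finset.sum_range_succ' (fun i => ρ (z' ^ i) u) o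
    rw [h2] at h3
    have h4 : ρ (z' ^ o) u = ρ (z' ^ 0) u := by rw [ho, pow_orderOf_eq_one, pow_zero]
    rw [h4] at h3
    exact (add_right_cancel h3).symm
  have hTr_comm : ∀ z' ∈ Z, ∀ u, Tr (ρ z' u) = ρ z' (Tr u) := by
    intro z' hz' u
    rw [hTr_apply, hTr_apply, map_sum]
    refine Finset.sum_congr rfl fun i _ => ?_
    have := congrArg (fun f : Module.End E U => f u) (hcomm (z₁ ^ i) (Z.pow_mem hz₁ i) z')
    exact this
  set U' : Submodule E U := LinearMap.ker Tr with hU'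
  have hU'ne : U' ≠ ⊥ := by
    obtain ⟨u, hu⟩ : ∃ u, ρ z₁ u ≠ u := by
      by_contra hcon
      push Not at hcon
      apply hne
      ext u
      exact hcon u
    intro hbot
    have hmem : ρ z₁ u - u ∈ U' := by
      rw [hU', LinearMap.mem_ker, map_sub, hTr_shift z₁ hz₁ rfl, sub_self]
    rw [hbot, Submodule.mem_bot, sub_eq_zero] at hmem
    exact hu hmem
  have hU'inv : ∀ z ∈ Z, ∀ w ∈ U', ρ z w ∈ U' := by
    intro z hz w hw
    rw [hU', LinearMap.mem_ker] at hw ⊢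
    rw [hTr_comm z hz, hw, map_zero]
  let 𝒮 : Set (Submodule E U) := {W | W ≠ ⊥ ∧ W ≤ U' ∧ ∀ z ∈ Z, ∀ w ∈ W, ρ z w ∈ W}
  have h𝒮 : 𝒮.Nonempty := ⟨U', hU'ne, le_rfl, hU'inv⟩
  obtain ⟨W, ⟨hWne, hWU, hWinv⟩, hWmin⟩ :=
    (wellFounded_lt (α := Submodule E U)).has_min 𝒮 h𝒮
  have hscal : ∀ z ∈ Z, ∃ c : E, ∀ w ∈ W, ρ z w = c • w := by
    intro z hz
    have : Nontrivial W := Submodule.nontrivial_iff_ne_bot.mpr hWne
    obtain ⟨c, hc⟩ := Module.End.exists_eigenvalue ((ρ z).restrict (hWinv z hz))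
    obtain ⟨w₀, hw₀⟩ := hc.exists_hasEigenvector
    refine ⟨c, ?_⟩
    set Wc : Submodule E U := W ⊓ Module.End.eigenspace (ρ z) c with hWc
    have hw₀' : ρ z (w₀ : U) = c • (w₀ : U) := by
      have := congrArg Subtype.val hw₀.apply_eq_smul
      simpa using this
    have hWc𝒮 : Wc ∈ 𝒮 := by
      refine ⟨?_, inf_le_left.trans hWU, ?_⟩
      · intro hbot
        have : (w₀ : U) ∈ Wc := ⟨w₀.2, Module.End.mem_eigenspace_iff.mpr hw₀'⟩
        rw [hbot, Submodule.mem_bot] at this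
        exact hw₀.2 (Subtype.ext this)
      · intro z' hz' w hw
        refine ⟨hWinv z' hz' w hw.1, ?_⟩
        rw [SetLike.mem_coe, Module.End.mem_eigenspace_iff]
        have h1 := Module.End.mem_eigenspace_iff.mp hw.2
        have h2 := congrArg (fun f : Module.End E U => f w) (hcomm z hz z')
        change ρ z (ρ z' w) = ρ z' (ρ z w) at h2
        rw [h2, h1, map_smul]
    have hnlt := hWmin Wc hWc𝒮
    have heq : Wc = W := by
      by_contra hne'
      exact hnlt (lt_of_le_of_ne inf_le_left hne')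
    intro w hw
    have : w ∈ Wc := heq ▸ hw
    exact Module.End.mem_eigenspace_iff.mp this.2
  choose! μ hμ using hscal
  obtain ⟨v, hvW, hv0⟩ := Submodule.exists_mem_ne_zero_of_ne_bot hWne
  refine ⟨μ, v, hv0, fun z hz => hμ z hz v hvW, ?_⟩
  intro hcon
  have h1 : Tr v = 0 := hWU hvW
  rw [hTr_apply] at h1
  have hfix : ρ z₁ v = v := by rw [hμ z₁ hz₁ v hvW, hcon, one_smul]
  have hfixi : ∀ i : ℕ, ρ (z₁ ^ i) v = v := by
    intro i
    induction i with
    | zero => simp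
    | succ i ih =>
      rw [pow_succ, map_mul]
      change ρ (z₁ ^ i) (ρ z₁ v) = v
      rw [hfix, ih]
  have h2 : ∑ i ∈ Finset.range o, ρ (z₁ ^ i) v = (o : E) • v := by
    rw [Finset.sum_congr rfl (fun i _ => hfixi i)]
    simp [Nat.cast_smul_eq_nsmul]
  rw [h2] at h1
  have h3 : (o : E) ≠ 0 := by
    intro h0
    apply hcard
    obtain ⟨k, hk⟩ := orderOf_dvd_natCard z₁
    rw [hk, Nat.cast_mul, ← ho, h0, zero_mul]
  exact hv0 ((smul_eq_zero.mp h1).resolve_left h3)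

end Cfsg.Agent.Lib.Helper85.Gross
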