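import Mathlib

set_option autoImplicit false
set_option linter.unusedSectionVars false
set_option linter.unusedVariables false

namespace Cfsg.Agent.Lib.Helper85.Gross

open scoped commutatorElement

/-- [NT] -/
theorem nt_mersenne {q a c : ℕ} (hq : q.Prime) (h : (2 ^ a - 1) ^ 2 = q ^ c) (h1 : 2 ≤ a) :
    q + 1 = 2 ^ a := by
  have h4 : 4 ∣ 2 ^ a := by
    obtain ⟨d, rfl⟩ : ∃ d, a = 2 + d := ⟨a - 2, by omega⟩
    exact ⟨2 ^ d, by rw [pow_add]; norm_num⟩
  have ha4 : 4 ≤ 2 ^ a := Nat.le_of_dvd (by positivity) h4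
  have hdvd : 2 ^ a - 1 ∣ q ^ c := ⟨2 ^ a - 1, by rw [← h]; ring⟩
  obtain ⟨e, -, he⟩ := (Nat.dvd_prime_pow hq).1 hdvd
  have he' : q ^ e + 1 = 2 ^ a := by omega
  have he0 : e ≠ 0 := by
    rintro rfl
    simp at he
    omega
  have hqodd : q % 2 = 1 := by
    rcases Nat.even_or_odd q with hev | hod
    · exfalso
      have : Even (q ^ e) := hev.pow_of_ne_zero he0
      obtain ⟨t, ht⟩ := this
      obtain ⟨s, hs⟩ := h4
      omega
    · exact Nat.odd_iff.1 hod
  rcases Nat.even_or_odd e with hev | hod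
  · exfalso
    obtain ⟨f, rfl⟩ := hev
    have hodd : (q ^ f) % 2 = 1 := by
      rw [Nat.pow_mod, hqodd]; simp
    have h44 : (q ^ f) % 4 = 1 ∨ (q ^ f) % 4 = 3 := by omega
    have : (q ^ (f + f)) % 4 = 1 := by
      rw [pow_add, Nat.mul_mod]
      rcases h44 with h | h <;> rw [h]
    obtain ⟨s, hs⟩ := h4
    omega
  · have hd : q + 1 ∣ 2 ^ a := by
      have := Odd.nat_add_dvd_pow_add_pow q 1 hod
      rwa [one_pow, he'] at this
    obtain ⟨b, hba, hb⟩ := (Nat.dvd_prime_pow Nat.prime_two).1 hd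
    obtain ⟨f, rfl⟩ := hod
    obtain ⟨j, hj⟩ : ∃ j, q = 2 * j + 1 := ⟨q / 2, by omega⟩
    have hq2 : q ^ 2 = j * 2 ^ (b + 1) + 1 := by
      have : 2 ^ (b + 1) = 2 * (q + 1) := by rw [pow_succ, hb]; ring
      rw [this, hj]; ring
    have m1 : q ^ 2 ≡ 1 [MOD 2 ^ (b + 1)] := by
      rw [hq2]
      unfold Nat.ModEq
      rw [Nat.add_mod, Nat.mul_mod_left]
      simp
    have m2 : q ^ (2 * f + 1) + 1 ≡ 2 ^ b [MOD 2 ^ (b + 1)] := by
      rw [← hb]
      have := (m1.pow f).mul_right q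
      rw [one_pow, one_mul, ← pow_mul, ← pow_succ] at this
      exact this.add_right 1
    by_contra hne
    have hlt : b < a := by
      rcases Nat.lt_or_ge b a with h | h
      · exact h
      · exfalso; apply hne; rw [hb]; congr 1; omega
    have hdiv : 2 ^ (b + 1) ∣ 2 ^ a := pow_dvd_pow 2 hlt
    rw [he'] at m2
    have h0 : 2 ^ a ≡ 0 [MOD 2 ^ (b + 1)] := (Nat.modEq_zero_iff_dvd).2 hdiv
    have h00 : 2 ^ b ≡ 0 [MOD 2 ^ (b + 1)] := m2.symm.trans h0
    have hdd := (Nat.modEq_zero_iff_dvd).1 h00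
    have := Nat.le_of_dvd (by positivity) hdd
    rw [pow_succ] at this
    have hpos : 0 < 2 ^ b := by positivity
    omega

end Cfsg.Agent.Lib.Helper85.Gross
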