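import Mathlib
import Cfsg.Agent.Lib.Helper46.Shult.R

set_option autoImplicit false
set_option linter.unusedSectionVars false
set_option linter.unusedVariables false

namespace Cfsg.Agent.Lib.Helper85.Gross

open scoped commutatorElement
open Module Cfsg.Agent.Lib.Helper46.ESRep Cfsg.Agent.Lib.Helper46.Shult

section aux
variable {E : Type*} [Field E] [IsAlgClosed E] {S : Type*} [AddCommGroup S] [Module E S]
  [FiniteDimensional E S]

theorem R2_finrank_le_aux {ι : Type*} [Fintype ι] (b : Basis ι E S) (d : ι → E)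
    (x : Module.End E S) (hb : ∀ a, x (b a) = d a • b a) :
    finrank E S ≤ finrank E (cent x) := by
  classical
  let P : ι → Module.End E S := fun a => (b.coord a).smulRight (b a)
  have hP : ∀ a c, P a (b c) = if c = a then b a else 0 := by
    intro a c
    simp only [P, LinearMap.smulRight_apply, Basis.coord_apply, Basis.repr_self,
      Finsupp.single_apply]
    split_ifs <;> simp
  have hmem : ∀ a, P a ∈ cent x := by
    intro a
    rw [mem_cent]
    apply b.ext
    intro c
    rw [Module.End.mul_apply, Module.End.mul_apply, hb c, map_smul, hP]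
    split_ifs with h
    · rw [hb a, h]
    · simp
  have hli : LinearIndependent E P := by
    rw [Fintype.linearIndependent_iff]
    intro g hg a
    have h1 := congrArg (fun f : Module.End E S => f (b a)) hg
    simp only [LinearMap.sum_apply, LinearMap.smul_apply, hP, LinearMap.zero_apply] at h1
    rw [Finset.sum_eq_single a] at h1
    · simp only [if_true] at h1
      exact (smul_eq_zero.1 h1).resolve_right (b.ne_zero a)
    · intro c _ hc
      rw [if_neg (Ne.symm hc), smul_zero]
    · intro h; exact absurd (Finset.mem_univ a) h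
  have h1 : finrank E (Submodule.span E (Set.range P)) = Fintype.card ι :=
    finrank_span_eq_card hli
  have h2 : Submodule.span E (Set.range P) ≤ cent x := by
    rw [Submodule.span_le]
    rintro _ ⟨a, rfl⟩
    exact hmem a
  rw [finrank_eq_card_basis b, ← h1]
  exact Submodule.finrank_mono h2

theorem R2_finrank_le (x : Module.End E S) (r : ℕ) (hxr : x ^ r = 1) (hrE : (r : E) ≠ 0) :
    finrank E S ≤ finrank E (cent x) := by
  classical
  have hss : x.IsSemisimple := by
    apply Module.End.isSemisimple_of_squarefree_aeval_eq_zero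
      (p := Polynomial.X ^ r - Polynomial.C (1 : E))
    · exact (Polynomial.separable_X_pow_sub_C (1 : E) hrE one_ne_zero).squarefree
    · simp [hxr]
  let dec := DirectSum.isInternal_submodule_of_iSupIndep_of_iSup_eq_top
    x.eigenspaces_iSupIndep hss.iSup_eigenspace_eq_top
  let b := dec.collectedBasis (fun μ => Module.finBasis E (x.eigenspace μ))
  have hb : ∀ a, x (b a) = a.1 • b a := fun a =>
    Module.End.mem_eigenspace_iff.1 (dec.collectedBasis_mem _ a)
  have : Fintype (Σ μ : E, Fin (finrank E (x.eigenspace μ))) :=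
    FiniteDimensional.fintypeBasisIndex b
  exact R2_finrank_le_aux b (fun a => a.1) x hb

end aux

theorem R2_arith {N c o k I : ℕ} (hI : N * N = I) (hI1 : I ≠ 1)
    (hI0 : I ≠ 0) (h0 : N ≤ c) (h1 : N ^ 2 ≤ (2 ^ (k + 1) - 1) * c) (h2 : c ≤ o)
    (h3 : o * 2 ^ (k + 1) = I + (2 ^ (k + 1) - 1)) : I = (2 ^ (k + 1) - 1) ^ 2 := by
  have hr2 : 2 ≤ 2 ^ (k + 1) := by
    calc 2 = 2 ^ 1 := (pow_one 2).symm
      _ ≤ 2 ^ (k + 1) := Nat.pow_le_pow_right (by norm_num) (by omega)
  obtain ⟨s, hs⟩ : ∃ s, 2 ^ (k + 1) = s + 1 := ⟨2 ^ (k + 1) - 1, by omega⟩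
  rw [hs] at h1 h3 ⊢
  simp only [Nat.add_sub_cancel] at *
  subst hI
  have hN2 : 2 ≤ N := by
    rcases N with _ | _ | N
    · simp at hI0
    · simp at hI1
    · omega
  have h4 : N ^ 2 ≤ s * o := h1.trans (Nat.mul_le_mul_left _ h2)
  have h5 : (s + 1) * N ^ 2 ≤ s * (N * N + s) := by
    calc (s + 1) * N ^ 2 ≤ (s + 1) * (s * o) := Nat.mul_le_mul_left _ h4
      _ = s * (o * (s + 1)) := by ring
      _ = s * (N * N + s) := by rw [h3]
  have h6 : N ^ 2 ≤ s ^ 2 := by nlinarith
  have h7 : N ≤ s := by
    by_contra hcon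
    push Not at hcon
    have : s ^ 2 < N ^ 2 := Nat.pow_lt_pow_left hcon (by norm_num)
    omega
  have h8 : (s + 1) * N ≤ N * N + s := by
    calc (s + 1) * N ≤ (s + 1) * o := Nat.mul_le_mul_left _ (h0.trans h2)
      _ = o * (s + 1) := by ring
      _ = N * N + s := h3
  have h9 : s ≤ N := by
    by_contra hcon
    push Not at hcon
    obtain ⟨M, rfl⟩ : ∃ M, N = M + 2 := ⟨N - 2, by omega⟩
    obtain ⟨t, rfl⟩ : ∃ t, s = M + 3 + t := ⟨s - (M + 3), by omega⟩
    nlinarith
  have hNs : N = s := le_antisymm h7 h9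
  rw [hNs]; ring

section core2
variable {E : Type*} [Field E] [IsAlgClosed E] {S : Type*} [AddCommGroup S] [Module E S]
  [FiniteDimensional E S] [Nontrivial S] {Q : Type*} [Group Q] [Finite Q]
variable {ρ : Q →* Module.End E S} {x : Module.End E S} {σ : MulAut Q} {k : ℕ}

theorem R2_index_eq (D : Data ρ x σ (2 ^ (k + 1)))
    (hσ : σ ^ 2 ^ (k + 1) = 1)
    (hrE : ((2 ^ (k + 1) : ℕ) : E) ≠ 0) (hZ : Subgroup.center Q ≠ ⊤)
    (fpf' : ∀ g, (σ ^ 2 ^ k) g * g⁻¹ ∈ Subgroup.center Q → g ∈ Subgroup.center Q)
    (hfix : ∀ v, x v = v → v = 0) :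
    (Subgroup.center Q).index = (2 ^ (k + 1) - 1) ^ 2 := by
  have := Fintype.ofFinite Q
  obtain ⟨o, h2, h3⟩ := finrank_cent_mul_le' D Nat.prime_two hσ hrE hZ fpf'
  have h1 := sq_finrank_le x (2 ^ (k + 1)) (pow_pos (by norm_num) _) D.xr hrE hfix
  have h0 := R2_finrank_le x (2 ^ (k + 1)) D.xr hrE
  exact R2_arith D.finrank_sq (fun h => hZ (Subgroup.index_eq_one.1 h))
    (Subgroup.index_ne_zero_of_finite) h0 h1 h2 h3

end core2

variable {E : Type*} [Field E] {U : Type*} [AddCommGroup U] [Module E U]
  {Q : Type*} [Group Q] [Finite Q]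

/-- [R2] free-case index theorem for a 2-power operator. -/
theorem index_eq_of_rep2 [IsAlgClosed E] [FiniteDimensional E U] [Nontrivial U]
    (ρ : Q →* Module.End E U) (x : Module.End E U) (σ : MulAut Q)
    {k : ℕ} (hxr : x ^ 2 ^ (k + 1) = 1)
    (tw : ∀ g, x * ρ g = ρ (σ g) * x)
    (cl2 : ∀ g h : Q, ⁅g, h⁆ ∈ Subgroup.center Q)
    (fixZ : ∀ z ∈ Subgroup.center Q, σ z = z)
    (fpf : ∀ g, (σ ^ 2 ^ k) g * g⁻¹ ∈ Subgroup.center Q → g ∈ Subgroup.center Q)
    (cardQ : (Nat.card Q : E) ≠ 0) (hσ : σ ^ 2 ^ (k + 1) = 1) (h2E : (2 : E) ≠ 0)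
    (hZ : Subgroup.center Q ≠ ⊤)
    (hfree : ∀ z ∈ Subgroup.center Q, z ≠ 1 → ∀ v, ρ z v = v → v = 0)
    (hfix : ∀ v, x v = v → v = 0) :
    (Subgroup.center Q).index = (2 ^ (k + 1) - 1) ^ 2 := by
  classical
  have := Fintype.ofFinite Q
  set r := 2 ^ (k + 1) with hr
  -- `σ` itself is fixed point free modulo the centre
  have hpowσ : ∀ (g z : Q), z ∈ Subgroup.center Q → σ g = z * g → ∀ i : ℕ, (σ ^ i) g = z ^ i * g := by
    intro g z hz h i
    induction i with
    | zero => simp
    | succ i ih =>
      rw [pow_succ', MulAut.mul_apply, ih, map_mul, map_pow, fixZ z hz, h, pow_succ, mul_assoc]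
  have fpf1 : ∀ g, σ g * g⁻¹ ∈ Subgroup.center Q → g ∈ Subgroup.center Q := by
    intro g hg
    apply fpf
    have h1 : σ g = (σ g * g⁻¹) * g := by group
    rw [hpowσ g _ hg h1 (2 ^ k), mul_inv_cancel_right]
    exact Subgroup.pow_mem _ hg _
  -- a minimal invariant subspace
  let 𝒲 : Set (Submodule E U) :=
    {W | W ≠ ⊥ ∧ (∀ g, ∀ v ∈ W, ρ g v ∈ W) ∧ (∀ v ∈ W, x v ∈ W)}
  obtain ⟨W, ⟨hW0, hWρ, hWx⟩, hmin⟩ :=
    (wellFounded_lt : WellFounded ((· < ·) : Submodule E U → Submodule E U → Prop)).has_min 𝒲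
      ⟨⊤, top_ne_bot, fun _ _ _ => trivial, fun _ _ => trivial⟩
  let ρW : Q →* Module.End E W :=
    { toFun := fun g => (ρ g).restrict (hWρ g)
      map_one' := by
        ext v; simp
      map_mul' := by
        intro g h
        ext v; simp }
  let xW : Module.End E W := x.restrict hWx
  have hnt : Nontrivial W := Submodule.nontrivial_iff_ne_bot.2 hW0
  have D : Data ρW xW σ r :=
    { xr := by
        ext v
        have h1 : (xW ^ r) v = ⟨(x ^ r) v, by rw [hxr]; exact v.2⟩ := by
          have := Module.End.pow_restrict (f' := x) r hWx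
          show ((x.restrict hWx) ^ r) v = _
          rw [this]; rfl
        rw [h1]; simp [hxr]
      rpos := pow_pos (by norm_num) _
      tw := by
        intro g
        ext v
        have := congrArg (fun f : Module.End E U => f v) (tw g)
        simp only [Module.End.mul_apply] at this
        exact this
      irr := by
        intro W' h1 h2
        by_cases hW' : W' = ⊥
        · exact Or.inl hW'
        · right
          have hmem : W'.map W.subtype ∈ 𝒲 := by
            refine ⟨?_, ?_, ?_⟩
            · intro h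
              apply hW'
              exact Submodule.map_injective_of_injective W.injective_subtype
                (h.trans (Submodule.map_bot _).symm)
            · rintro g _ ⟨v, hv, rfl⟩
              exact ⟨ρW g v, h1 g v hv, rfl⟩
            · rintro _ ⟨v, hv, rfl⟩
              exact ⟨xW v, h2 v hv, rfl⟩
          have h3 := hmin _ hmem
          have h4 : W'.map W.subtype = W := by
            by_contra hne
            exact h3 (lt_of_le_of_ne (Submodule.map_subtype_le W W') hne)
          rw [eq_top_iff]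
          intro v _
          have h5 : (v : U) ∈ W'.map W.subtype := by rw [h4]; exact v.2
          obtain ⟨w, hw, hwv⟩ := h5
          have : w = v := Subtype.ext hwv
          rwa [← this]
      cl2 := cl2
      faith := by
        intro z hz h1
        by_contra hz1
        obtain ⟨w, hw⟩ := exists_ne (0 : W)
        apply hw
        have h2 : ρ z (w : U) = w := by
          have := congrArg (fun f : Module.End E W => ((f w : W) : U)) h1
          exact this
        exact Subtype.ext (hfree z hz hz1 w h2)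
      fixZ := fixZ
      fpf := fpf1
      cardQ := cardQ }
  have hrE : ((2 ^ (k + 1) : ℕ) : E) ≠ 0 := by
    rw [Nat.cast_pow]; exact pow_ne_zero _ (by exact_mod_cast h2E)
  apply R2_index_eq D hσ hrE hZ fpf
  intro v hv
  have h1 : x (v : U) = v := congrArg Subtype.val hv
  exact Subtype.ext (hfix _ h1)

end Cfsg.Agent.Lib.Helper85.Gross
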