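import Mathlib
import Cfsg.Agent.Lib.Helper46.Shult.W
import Cfsg.Agent.Lib.Helper85.Gross.R2

set_option autoImplicit false
set_option linter.unusedSectionVars false
set_option linter.unusedVariables false

namespace Cfsg.Agent.Lib.Helper85.Gross

open scoped commutatorElement
open Cfsg.Agent.Lib.Helper46.Shult

variable {E : Type*} [Field E] {U : Type*} [AddCommGroup U] [Module E U]
  {Q : Type*} [Group Q] [Finite Q]

/-- [W2] index of the radical (p = 2, no hypothesis that tau fixes the centre). -/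
theorem index_rad2 [IsAlgClosed E] [FiniteDimensional E U] [Nontrivial U]
    {q : ℕ} (hq : q.Prime) (hq2 : q ≠ 2) (hQ : IsPGroup q Q)
    (ρ : Q →* Module.End E U) (x : Module.End E U) (σ : MulAut Q) (k : ℕ)
    (hσ : σ ^ 2 ^ (k + 1) = 1) (hx : x ^ 2 ^ (k + 1) = 1)
    (tw : ∀ g, x * ρ g = ρ (σ g) * x) (hfix : ∀ v, x v = v → v = 0)
    (h2E : (2 : E) ≠ 0) (hqE : (q : E) ≠ 0)
    (cl2 : ∀ g h : Q, ⁅g, h⁆ ∈ Subgroup.center Q)
    (hτfpf : ∀ g, (σ ^ 2 ^ k) g * g⁻¹ ∈ Subgroup.center Q → g ∈ Subgroup.center Q)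
    (hgen : Subgroup.closure {y : Q | ∃ g, y = (σ ^ 2 ^ k) g * g⁻¹} = ⊤)
    (μ : Q → E) (hwt : ∀ z ∈ Subgroup.center Q, ∀ v, ρ z v = μ z • v)
    (hμ : ∃ z ∈ Subgroup.center Q, μ z ≠ 1) :
    ∃ R : Subgroup Q, (∀ g, g ∈ R ↔ ∀ h, μ ⁅g, h⁆ = 1) ∧
      R.index = (2 ^ (k + 1) - 1) ^ 2 ∧ R ≠ ⊤ := by
  classical
  have hτZ : ∀ z ∈ Subgroup.center Q, (σ ^ 2 ^ k) z ∈ Subgroup.center Q := by
    intro z hz
    rw [Subgroup.mem_center_iff] at hz ⊢
    intro g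
    obtain ⟨g, rfl⟩ := (σ ^ 2 ^ k).surjective g
    rw [← map_mul, ← map_mul, hz]
  have : Fact q.Prime := ⟨hq⟩
  have hNpos : 0 < 2 ^ (k + 1) := pow_pos (by norm_num) _
  have hxinv : x * x ^ (2 ^ (k + 1) - 1) = 1 := by
    rw [← pow_succ', Nat.sub_add_cancel hNpos, hx]
  have hconj : ∀ g, ρ (σ g) = x * ρ g * x ^ (2 ^ (k + 1) - 1) := by
    intro g; rw [tw, mul_assoc, hxinv, mul_one]
  have hscal : ∀ z ∈ Subgroup.center Q, ρ z = μ z • (1 : Module.End E U) := by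
    intro z hz; ext v; simp [hwt z hz v]
  obtain ⟨u0, hu0⟩ := exists_ne (0 : U)
  have hone : ∀ z ∈ Subgroup.center Q, (ρ z = 1 ↔ μ z = 1) := by
    intro z hz
    constructor
    · intro h
      have h1 := hwt z hz u0
      rw [h] at h1
      have h2 : (μ z - 1) • u0 = 0 := by rw [sub_smul, one_smul, ← h1]; simp
      rcases smul_eq_zero.1 h2 with h3 | h3
      · exact sub_eq_zero.1 h3
      · exact absurd h3 hu0
    · intro h
      rw [hscal z hz, h, one_smul]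
  have hKσ : ∀ g ∈ ρ.ker, σ g ∈ ρ.ker := by
    intro g hg
    rw [MonoidHom.mem_ker] at hg ⊢
    rw [hconj, hg, mul_one, hxinv]
  obtain ⟨σb, hσb_mk, hσb_pow⟩ : ∃ σb : MulAut (Q ⧸ ρ.ker),
      (∀ g : Q, σb (g : Q ⧸ ρ.ker) = ((σ g : Q) : Q ⧸ ρ.ker)) ∧
      (∀ (m : ℕ) (g : Q), (σb ^ m) (g : Q ⧸ ρ.ker) = (((σ ^ m) g : Q) : Q ⧸ ρ.ker)) :=
    ⟨WAux.quot σ ρ.ker hKσ, fun g => WAux.quot_mk σ ρ.ker hKσ g,
      fun m g => WAux.quot_pow σ ρ.ker hKσ m g⟩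
  have hσbN : σb ^ 2 ^ (k + 1) = 1 := by
    ext a
    obtain ⟨a, rfl⟩ := QuotientGroup.mk_surjective a
    rw [hσb_pow, hσ]; rfl
  obtain ⟨ρb, hρb_mk, hρb_inj⟩ : ∃ ρb : (Q ⧸ ρ.ker) →* Module.End E U,
      (∀ g : Q, ρb (g : Q ⧸ ρ.ker) = ρ g) ∧ Function.Injective ρb :=
    ⟨QuotientGroup.lift ρ.ker ρ le_rfl, fun g => QuotientGroup.lift_mk _ _ g, by
      intro a b hab
      obtain ⟨a, rfl⟩ := QuotientGroup.mk_surjective a
      obtain ⟨b, rfl⟩ := QuotientGroup.mk_surjective b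
      have hab' : ρ a = ρ b := hab
      apply QuotientGroup.eq.2
      rw [MonoidHom.mem_ker, map_mul, ← hab', ← map_mul, inv_mul_cancel, map_one]⟩
  have hQb : IsPGroup q (Q ⧸ ρ.ker) := hQ.to_quotient _
  have twb : ∀ g, x * ρb g = ρb (σb g) * x := by
    intro g
    obtain ⟨g, rfl⟩ := QuotientGroup.mk_surjective g
    rw [hσb_mk, hρb_mk, hρb_mk]
    exact tw g
  have hZC : ∀ z ∈ Subgroup.center Q, (z : Q ⧸ ρ.ker) ∈ Subgroup.center (Q ⧸ ρ.ker) := by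
    intro z hz
    rw [Subgroup.mem_center_iff]
    intro g
    obtain ⟨g, rfl⟩ := QuotientGroup.mk_surjective g
    have := Subgroup.mem_center_iff.1 hz g
    show ((g * z : Q) : Q ⧸ ρ.ker) = ((z * g : Q) : Q ⧸ ρ.ker)
    rw [this]
  have hσbC : ∀ c ∈ Subgroup.center (Q ⧸ ρ.ker), σb c ∈ Subgroup.center (Q ⧸ ρ.ker) := by
    intro c hc
    rw [Subgroup.mem_center_iff] at hc ⊢
    intro g
    obtain ⟨g, rfl⟩ := σb.surjective g
    rw [← map_mul, ← map_mul, hc]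
  -- cardinalities of subgroups of the quotient are invertible in `E`
  have hcardE : ∀ B : Subgroup (Q ⧸ ρ.ker), (Nat.card B : E) ≠ 0 := by
    intro B
    obtain ⟨m, hm⟩ := IsPGroup.iff_card.1 (hQb.to_subgroup B)
    rw [hm, Nat.cast_pow]
    exact pow_ne_zero _ hqE
  -- (ii) `τb` fixes the centre of the quotient pointwise
  have hτC : ∀ c ∈ Subgroup.center (Q ⧸ ρ.ker), (σb ^ 2 ^ k) c = c := by
    let φ : Subgroup.center (Q ⧸ ρ.ker) →* (Q ⧸ ρ.ker) :=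
      MonoidHom.mk' (fun c => (σb ^ 2 ^ k) (c : Q ⧸ ρ.ker) * (c : Q ⧸ ρ.ker)⁻¹) (by
        intro c d
        have hc := Subgroup.mem_center_iff.1 (Subgroup.inv_mem _ c.2)
        simp only [Subgroup.coe_mul, map_mul, mul_inv_rev]
        rw [mul_assoc, mul_assoc, ← mul_assoc _ _ (c : Q ⧸ ρ.ker)⁻¹, hc])
    have hφ : ∀ c, φ c = (σb ^ 2 ^ k) (c : Q ⧸ ρ.ker) * (c : Q ⧸ ρ.ker)⁻¹ := fun _ => rfl
    have hBσ : ∀ b ∈ φ.range, σb b ∈ φ.range := by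
      rintro _ ⟨c, rfl⟩
      refine ⟨⟨σb c, hσbC _ c.2⟩, ?_⟩
      rw [hφ, hφ, map_mul, map_inv, WAux.pow_comm_apply]
    have hfpB : ∀ b ∈ φ.range, (σb ^ 2 ^ k) b = b → b = 1 := by
      rintro _ ⟨c, rfl⟩ hb
      set b := φ c with hbdef
      have hτc : (σb ^ 2 ^ k) (c : Q ⧸ ρ.ker) = b * c := by rw [hbdef, hφ]; group
      have hpow : ∀ j : ℕ, ((σb ^ 2 ^ k) ^ j) (c : Q ⧸ ρ.ker) = b ^ j * c := by
        intro j
        induction j with
        | zero => simp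
        | succ j ih =>
          rw [pow_succ', MulAut.mul_apply, ih, map_mul, map_pow, hb, hτc, pow_succ, mul_assoc]
      have h1 := hpow 2
      rw [← pow_mul, ← pow_succ, hσbN] at h1
      have h2 : b ^ 2 = 1 := by
        have : (c : Q ⧸ ρ.ker) = b ^ 2 * c := h1
        exact (mul_eq_right.1 this.symm)
      obtain ⟨m, hm⟩ := hQb b
      have hcop : Nat.Coprime 2 (q ^ m) := Nat.Coprime.pow_right _ ((Nat.coprime_primes Nat.prime_two hq).2 (Ne.symm hq2))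
      have h3 : orderOf b ∣ 1 := by
        rw [← hcop.gcd_eq_one]
        exact Nat.dvd_gcd (orderOf_dvd_of_pow_eq_one h2) (orderOf_dvd_of_pow_eq_one hm)
      exact orderOf_eq_one_iff.1 (Nat.dvd_one.1 h3)
    have hD := WAux.D_sub ρb x σb φ.range hBσ (2 ^ (k + 1)) hNpos hx twb
      (fun j hj hj' g hg hfixg => hfpB g hg (WAux.fix_top_pow σb Nat.prime_two hσbN hj hj' g hfixg))
      (hcardE _) hfix
    intro c hc
    have h1 : ρb (φ ⟨c, hc⟩) = 1 := hD _ ⟨_, rfl⟩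
    have h2 : φ ⟨c, hc⟩ = 1 := hρb_inj (by rw [h1, map_one])
    rw [hφ] at h2
    exact mul_inv_eq_one.1 h2
  -- the subgroup `L = Z K`
  let L : Subgroup Q := ((Subgroup.center Q).map (QuotientGroup.mk' ρ.ker)).comap
    (QuotientGroup.mk' ρ.ker)
  have hL : ∀ g, g ∈ L ↔ ∃ z ∈ Subgroup.center Q, (z : Q ⧸ ρ.ker) = (g : Q ⧸ ρ.ker) := by
    intro g
    exact Iff.rfl
  have hZL : Subgroup.center Q ≤ L := fun z hz => (hL z).2 ⟨z, hz, rfl⟩
  have hKL : ρ.ker ≤ L := fun g hg =>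
    (hL g).2 ⟨1, Subgroup.one_mem _, ((QuotientGroup.eq_one_iff g).2 hg).symm⟩
  have hLτ : ∀ l ∈ L, (σ ^ 2 ^ k) l ∈ L := by
    intro l hl
    obtain ⟨z, hz, hzl⟩ := (hL l).1 hl
    refine (hL _).2 ⟨(σ ^ 2 ^ k) z, hτZ z hz, ?_⟩
    rw [← hσb_pow, ← hσb_pow, hzl]
  have hL1 : ∀ g, (σ ^ 2 ^ k) g * g⁻¹ ∈ L → g ∈ L := fun g hg =>
    WAux.L1 (σ ^ 2 ^ k) (Subgroup.center Q) L hτZ hτfpf hZL
      hLτ g hg
  -- (iii)
  have hCZ : ∀ c ∈ Subgroup.center (Q ⧸ ρ.ker), ∃ z ∈ Subgroup.center Q, (z : Q ⧸ ρ.ker) = c := by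
    intro c hc
    obtain ⟨g, rfl⟩ := QuotientGroup.mk_surjective c
    have h1 := hτC _ hc
    rw [hσb_pow] at h1
    have h2 : (σ ^ 2 ^ k) g * g⁻¹ ∈ ρ.ker := by
      rw [← QuotientGroup.eq_one_iff, QuotientGroup.mk_mul, QuotientGroup.mk_inv, h1,
        mul_inv_cancel]
    exact (hL g).1 (hL1 g (hKL h2))
  have hCtop : Subgroup.center (Q ⧸ ρ.ker) ≠ ⊤ := by
    intro htop
    have h1 : ∀ g, (σ ^ 2 ^ k) g * g⁻¹ ∈ ρ.ker := by
      intro g
      have h1 := hτC (g : Q ⧸ ρ.ker) (by rw [htop]; trivial)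
      rw [hσb_pow] at h1
      rw [← QuotientGroup.eq_one_iff, QuotientGroup.mk_mul, QuotientGroup.mk_inv, h1,
        mul_inv_cancel]
    have h2 : (⊤ : Subgroup Q) ≤ ρ.ker := by
      rw [← hgen, Subgroup.closure_le]
      rintro _ ⟨g, rfl⟩
      exact h1 g
    obtain ⟨z, hz, hz1⟩ := hμ
    exact hz1 ((hone z hz).1 (h2 (Subgroup.mem_top z)))
  have hidx := index_eq_of_rep2 ρb x σb hx twb
    (by
      intro g h
      obtain ⟨g, rfl⟩ := QuotientGroup.mk_surjective g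
      obtain ⟨h, rfl⟩ := QuotientGroup.mk_surjective h
      exact hZC _ (cl2 g h))
    (by
      intro c hc
      obtain ⟨z, hz, rfl⟩ := hCZ c hc
      apply hρb_inj
      rw [hσb_mk, hρb_mk, hρb_mk, hconj, hscal z hz]
      rw [mul_smul_comm, mul_one, smul_mul_assoc, hxinv])
    (by
      intro g hg
      obtain ⟨g, rfl⟩ := QuotientGroup.mk_surjective g
      rw [hσb_pow] at hg
      obtain ⟨z, hz, hzg⟩ := hCZ _ hg
      have h1 : (σ ^ 2 ^ k) g * g⁻¹ ∈ L := (hL _).2 ⟨z, hz, hzg⟩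
      obtain ⟨z', hz', hzg'⟩ := (hL g).1 (hL1 g h1)
      rw [← hzg']
      exact hZC z' hz')
    (by
      obtain ⟨m, hm⟩ := IsPGroup.iff_card.1 hQb
      rw [hm, Nat.cast_pow]
      exact pow_ne_zero _ hqE)
    hσbN h2E
    hCtop
    (by
      intro c hc hc1 v hv
      obtain ⟨z, hz, rfl⟩ := hCZ c hc
      rw [hρb_mk, hwt z hz] at hv
      by_contra hv0
      have h2 : (μ z - 1) • v = 0 := by rw [sub_smul, one_smul, hv, sub_self]
      rcases smul_eq_zero.1 h2 with h3 | h3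
      · apply hc1
        rw [QuotientGroup.eq_one_iff]
        exact (hone z hz).2 (sub_eq_zero.1 h3)
      · exact hv0 h3)
    hfix
  refine ⟨(Subgroup.center (Q ⧸ ρ.ker)).comap (QuotientGroup.mk' ρ.ker), ?_, ?_, ?_⟩
  · intro g
    rw [Subgroup.mem_comap, Subgroup.mem_center_iff]
    constructor
    · intro h1 h
      rw [← hone _ (cl2 g h)]
      have h2 := h1 (h : Q ⧸ ρ.ker)
      show ⁅g, h⁆ ∈ ρ.ker
      rw [← QuotientGroup.eq_one_iff]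
      show (g : Q ⧸ ρ.ker) * h * (g : Q ⧸ ρ.ker)⁻¹ * (h : Q ⧸ ρ.ker)⁻¹ = 1
      have h3 : (h : Q ⧸ ρ.ker) * g = g * h := h2
      rw [← h3]; group
    · intro h1 h
      obtain ⟨h, rfl⟩ := QuotientGroup.mk_surjective h
      have h2 : ⁅g, h⁆ ∈ ρ.ker := (hone _ (cl2 g h)).2 (h1 h)
      rw [← QuotientGroup.eq_one_iff] at h2
      have h3 : (g : Q ⧸ ρ.ker) * h * (g : Q ⧸ ρ.ker)⁻¹ * (h : Q ⧸ ρ.ker)⁻¹ = 1 := h2
      show (h : Q ⧸ ρ.ker) * g = g * h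
      have h4 := mul_inv_eq_one.1 h3
      have h5 := mul_inv_eq_iff_eq_mul.1 h4
      exact h5.symm
  · rw [Subgroup.index_comap_of_surjective _ (QuotientGroup.mk'_surjective _)]
    exact hidx
  · intro htop
    apply hCtop
    rw [eq_top_iff]
    intro a _
    obtain ⟨g, rfl⟩ := QuotientGroup.mk_surjective a
    have : g ∈ (Subgroup.center (Q ⧸ ρ.ker)).comap (QuotientGroup.mk' ρ.ker) := by
      rw [htop]; trivial
    exact this

end Cfsg.Agent.Lib.Helper85.Gross
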