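import Mathlib
import Cfsg.Agent.Lib.Helper46.Shult.T1
import Cfsg.Agent.Lib.Helper85.Gross.W2
import Cfsg.Agent.Lib.Helper85.Gross.NT

set_option autoImplicit false
set_option linter.unusedSectionVars false
set_option linter.unusedVariables false

namespace Cfsg.Agent.Lib.Helper85.Gross

open scoped commutatorElement
open Cfsg.Agent.Lib.Helper46.Shult

variable {E : Type*} [Field E] {U : Type*} [AddCommGroup U] [Module E U]
  {Q : Type*} [Group Q] [Finite Q]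

/-- an operator `T` with `T ^ 2` fixing `v ≠ 0`: eigenvector for `1`, or `T v = - v` -/
theorem GEN_eig (h2E : (2 : E) ≠ 0) (T : Module.End E U) (v : U) (hv : v ≠ 0)
    (hT : (T ^ 2) v = v) : (∃ w, w ≠ 0 ∧ T w = w) ∨ T v = -v := by
  by_cases h : v + T v = 0
  · right
    exact (eq_neg_of_add_eq_zero_right h)
  · left
    refine ⟨v + T v, h, ?_⟩
    rw [map_add, ← Module.End.mul_apply, ← sq, hT, add_comm]

theorem GEN_pow_fix (T : Module.End E U) (w : U) (h : T w = w) (N : ℕ) : (T ^ N) w = w := by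
  induction N with
  | zero => simp
  | succ N ih => rw [pow_succ, Module.End.mul_apply, h, ih]

/-- [GEN] -/
theorem gen [IsAlgClosed E] [FiniteDimensional E U]
    {q : ℕ} (hq : q.Prime) (hq2 : q ≠ 2) (hQ : IsPGroup q Q)
    (ρ : Q →* Module.End E U) (x : Module.End E U) (σ : MulAut Q) (l : ℕ)
    (hσ : σ ^ 2 ^ (l + 1) = 1) (hx : x ^ 2 ^ (l + 1) = 1)
    (tw : ∀ g, x * ρ g = ρ (σ g) * x) (hfix : ∀ v, x v = v → v = 0)
    (h2E : (2 : E) ≠ 0) (hqE : (q : E) ≠ 0)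
    (cl2 : ∀ g h : Q, ⁅g, h⁆ ∈ Subgroup.center Q)
    (hτfpf : ∀ g, (σ ^ 2 ^ l) g * g⁻¹ ∈ Subgroup.center Q → g ∈ Subgroup.center Q)
    (hgen : Subgroup.closure {y : Q | ∃ g, y = (σ ^ 2 ^ l) g * g⁻¹} = ⊤)
    (hna : ∃ g h : Q, ρ ⁅g, h⁆ ≠ 1) :
    (∃ a, 2 ≤ a ∧ a ≤ l + 1 ∧ q + 1 = 2 ^ a) ∧
      ∃ j, l = j + 1 ∧ ∃ v, v ≠ 0 ∧ (x ^ 2 ^ j) v = -v := by
  classical
  have hp : Nat.Prime 2 := Nat.prime_two
  have hqF : Fact q.Prime := ⟨hq⟩
  obtain ⟨cQ, hcQ⟩ := IsPGroup.iff_card.1 hQ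
  have hcardE : (Nat.card Q : E) ≠ 0 := by
    rw [hcQ, Nat.cast_pow]; exact pow_ne_zero _ hqE
  obtain ⟨g₀, h₀, hρz₁⟩ := hna
  obtain ⟨μ, v₀, hv₀, hwt, hμ⟩ := exists_weight ρ hcardE ⁅g₀, h₀⁆ (cl2 _ _) hρz₁
  -- the stabilizer exponent
  have hex : ∃ m, ∀ z ∈ Subgroup.center Q, μ ((σ ^ 2 ^ m) z) = μ z :=
    ⟨l + 1, fun z _ => by rw [hσ]; rfl⟩
  set m := Nat.find hex with hm
  have hstab : ∀ z ∈ Subgroup.center Q, μ ((σ ^ 2 ^ m) z) = μ z := Nat.find_spec hex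
  have hminm : ∀ m' < m, ∃ z ∈ Subgroup.center Q, μ ((σ ^ 2 ^ m') z) ≠ μ z := by
    intro m' hm'
    have := Nat.find_min hex hm'
    push Not at this
    exact this
  have hnofix : ∀ v, (∀ z ∈ Subgroup.center Q, ρ z v = μ z • v) → (x ^ 2 ^ m) v = v → v = 0 :=
    fun v hv hxv => no_fix_on_weight ρ x σ hp (l + 1) m hσ hx tw hfix μ hstab hminm v hv hxv
  have hmn1 : m ≤ l + 1 := Nat.find_min' hex (fun z _ => by rw [hσ]; rfl)
  have hmn : m ≤ l := by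
    by_contra hcon
    have : m = l + 1 := by omega
    apply hv₀
    apply hnofix v₀ hwt
    rw [this, hx]; rfl
  obtain ⟨k, hk⟩ : ∃ k, l = m + k := ⟨l - m, by omega⟩
  set σ₁ : MulAut Q := σ ^ 2 ^ m with hσ₁
  set x₁ : Module.End E U := x ^ 2 ^ m with hx₁
  have hσ₁k : σ₁ ^ 2 ^ k = σ ^ 2 ^ l := by
    rw [hσ₁, ← pow_mul, ← pow_add, hk]
  have hσ₁k1 : σ₁ ^ 2 ^ (k + 1) = 1 := by
    rw [hσ₁, ← pow_mul, ← pow_add, ← hσ, hk]
    congr 2
  have hx₁k1 : x₁ ^ 2 ^ (k + 1) = 1 := by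
    rw [hx₁, ← pow_mul, ← pow_add, ← hx, hk]
    congr 2
  have tw₁ : ∀ g, x₁ * ρ g = ρ (σ₁ g) * x₁ := fun g => tw_pow tw _ g
  -- the weight space
  let Uμ : Submodule E U :=
    { carrier := {v | ∀ z ∈ Subgroup.center Q, ρ z v = μ z • v}
      add_mem' := by
        intro a b ha hb z hz
        rw [map_add, ha z hz, hb z hz, smul_add]
      zero_mem' := by
        intro z hz
        simp
      smul_mem' := by
        intro c a ha z hz
        rw [map_smul, ha z hz, smul_comm] }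
  have hUρ : ∀ g, ∀ v ∈ Uμ, ρ g v ∈ Uμ := by
    intro g v hv z hz
    have h1 : ρ z (ρ g v) = ρ g (ρ z v) := by
      rw [← Module.End.mul_apply, ← Module.End.mul_apply, ← map_mul, ← map_mul,
        Subgroup.mem_center_iff.1 hz g]
    rw [h1, hv z hz, map_smul]
  have hUx : ∀ v ∈ Uμ, x₁ v ∈ Uμ := by
    intro v hv z hz
    have hz' : σ₁⁻¹ z ∈ Subgroup.center Q := center_mem_of_aut _ hz
    have h1 := congrArg (fun f : Module.End E U => f v) (tw₁ (σ₁⁻¹ z))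
    simp only [Module.End.mul_apply, MulAut.apply_inv_self] at h1
    rw [← h1, hv _ hz', map_smul]
    congr 1
    have := hstab _ hz'
    rw [MulAut.apply_inv_self] at this
    exact this.symm
  let ρμ : Q →* Module.End E Uμ :=
    { toFun := fun g => (ρ g).restrict (hUρ g)
      map_one' := by
        ext v; simp
      map_mul' := by
        intro g h
        ext v; simp }
  let xμ : Module.End E Uμ := x₁.restrict hUx
  have hnt : Nontrivial Uμ := ⟨⟨⟨v₀, hwt⟩, 0, fun h => hv₀ (congrArg Subtype.val h)⟩⟩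
  have hxμpow : ∀ (N : ℕ) (v : Uμ), (((xμ ^ N) v : Uμ) : U) = (x₁ ^ N) (v : U) := by
    intro N v
    have := Module.End.pow_restrict (f' := x₁) N hUx
    show ((((x₁.restrict hUx) ^ N) v : Uμ) : U) = _
    rw [this]; rfl
  have hxμ : xμ ^ 2 ^ (k + 1) = 1 := by
    ext v
    rw [hxμpow, hx₁k1]; rfl
  have twμ : ∀ g, xμ * ρμ g = ρμ (σ₁ g) * xμ := by
    intro g
    ext v
    have := congrArg (fun f : Module.End E U => f v) (tw₁ g)
    simp only [Module.End.mul_apply] at this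
    exact this
  have hfixμ : ∀ v, xμ v = v → v = 0 := by
    intro v hv
    have h1 : x₁ (v : U) = v := congrArg Subtype.val hv
    exact Subtype.ext (hnofix _ v.2 h1)
  have hwtμ : ∀ z ∈ Subgroup.center Q, ∀ v, ρμ z v = μ z • v := by
    intro z hz v
    exact Subtype.ext (v.2 z hz)
  obtain ⟨R₀, hR₀mem, hR₀idx, hR₀top⟩ := index_rad2 hq hq2 hQ ρμ xμ σ₁ k hσ₁k1 hxμ twμ hfixμ
    h2E hqE cl2 (by rw [hσ₁k]; exact hτfpf) (by rw [hσ₁k]; exact hgen) μ hwtμ hμ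
  -- `k ≠ 0`
  obtain ⟨k', rfl⟩ : ∃ k', k = k' + 1 := by
    rcases k with _ | k'
    · exfalso
      apply hR₀top
      rw [← Subgroup.index_eq_one, hR₀idx]
      norm_num
    · exact ⟨k', rfl⟩
  obtain ⟨c, hc⟩ := hQ.index R₀
  have hqa : q + 1 = 2 ^ (k' + 1 + 1) := nt_mersenne hq (hR₀idx.symm.trans hc) (by omega)
  refine ⟨⟨k' + 1 + 1, by omega, by omega, hqa⟩, m + k', by omega, ?_⟩
  have hxj : x ^ 2 ^ (m + k') = x₁ ^ 2 ^ k' := by
    rw [hx₁, ← pow_mul, ← pow_add]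
  rw [hxj]
  -- it is enough to find the eigenvector in the weight space
  suffices hsuff : ∃ w : Uμ, w ≠ 0 ∧ (xμ ^ 2 ^ k') w = -w by
    obtain ⟨w, hw, hw'⟩ := hsuff
    refine ⟨(w : U), fun h => hw (Subtype.ext h), ?_⟩
    rw [← hxμpow, hw']; rfl
  obtain ⟨ε, hε⟩ := IsAlgClosed.exists_pow_nat_eq (-1 : E) (n := 2 ^ k') (by positivity)
  set T : Module.End E Uμ := ε • xμ with hT
  have hTN : T ^ 2 ^ k' = -(xμ ^ 2 ^ k') := by
    rw [hT, smul_pow, hε, neg_smul, one_smul]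
  have hkey : ∃ v : Uμ, v ≠ 0 ∧ (T ^ 2) v = v := by
    by_contra hcon
    push Not at hcon
    have hfix2 : ∀ v, (T ^ 2) v = v → v = 0 := by
      intro v hv
      by_contra hv0
      exact hcon v hv0 hv
    have e1 : (T ^ 2) ^ 2 ^ (k' + 1) = 1 := by
      rw [← pow_mul, ← pow_succ', hT, smul_pow, hxμ]
      have : ε ^ 2 ^ (k' + 1 + 1) = 1 := by
        rw [pow_succ, pow_succ, mul_assoc, pow_mul, hε]; norm_num
      rw [this, one_smul]
    have e2 : (σ₁ ^ 2) ^ 2 ^ (k' + 1) = 1 := by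
      rw [← pow_mul, ← pow_succ', hσ₁k1]
    have e3 : (σ₁ ^ 2) ^ 2 ^ k' = σ ^ 2 ^ l := by
      rw [← pow_mul, ← pow_succ', hσ₁k]
    have twT : ∀ g, T ^ 2 * ρμ g = ρμ ((σ₁ ^ 2) g) * T ^ 2 := by
      intro g
      have h1 := tw_pow twμ 2 g
      rw [hT, smul_pow, smul_mul_assoc, h1, mul_smul_comm]
    obtain ⟨R₁, hR₁mem, hR₁idx, -⟩ := index_rad2 hq hq2 hQ ρμ (T ^ 2) (σ₁ ^ 2) k' e2 e1 twT hfix2
      h2E hqE cl2 (by rw [e3]; exact hτfpf) (by rw [e3]; exact hgen) μ hwtμ hμ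
    have hRR : R₁ = R₀ := by
      ext g
      rw [hR₁mem, hR₀mem]
    rw [hRR, hR₀idx] at hR₁idx
    have h3 : 2 ^ (k' + 1 + 1) - 1 = 2 ^ (k' + 1) - 1 := by
      exact Nat.pow_left_injective (n := 2) (by norm_num) hR₁idx
    have h4 : 2 ^ (k' + 1 + 1) = 2 * 2 ^ (k' + 1) := by rw [pow_succ']
    have h5 : 0 < 2 ^ (k' + 1) := by positivity
    omega
  obtain ⟨v, hv, hTv⟩ := hkey
  rcases GEN_eig h2E T v hv hTv with ⟨w, hw, hTw⟩ | hneg
  · refine ⟨w, hw, ?_⟩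
    have h1 := GEN_pow_fix T w hTw (2 ^ k')
    rw [hTN, LinearMap.neg_apply] at h1
    exact neg_eq_iff_eq_neg.1 h1
  · rcases k' with _ | k''
    · exfalso
      apply hv
      apply hfixμ
      have hε1 : ε = -1 := by simpa using hε
      rw [hT, hε1, LinearMap.smul_apply, neg_smul, one_smul] at hneg
      exact neg_injective hneg
    · refine ⟨v, hv, ?_⟩
      have h1 := GEN_pow_fix (T ^ 2) v hTv (2 ^ k'')
      rw [← pow_mul, ← pow_succ', hTN, LinearMap.neg_apply] at h1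
      exact neg_eq_iff_eq_neg.1 h1

end Cfsg.Agent.Lib.Helper85.Gross
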