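import Mathlib

set_option autoImplicit false
set_option linter.unusedSectionVars false
set_option linter.unusedVariables false

namespace Cfsg.Agent.Lib.Helper85.Gross

open scoped commutatorElement

/-- [INV] an involutory automorphism of an odd order group of class at most 2 fixing the centre. -/
theorem inv_lemmas {Q : Type*} [Group Q] [Finite Q] (hodd : Odd (Nat.card Q)) (τ : MulAut Q)
    (hτ2 : τ ^ 2 = 1) (cl2 : ∀ g h : Q, ⁅g, h⁆ ∈ Subgroup.center Q)
    (hτZ : ∀ z ∈ Subgroup.center Q, τ z = z) :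
    (∀ c, τ c = c → ∀ m ∈ Subgroup.closure {y : Q | ∃ g, y = τ g * g⁻¹}, c * m = m * c) ∧
    (∀ g, ∃ c m, τ c = c ∧ m ∈ Subgroup.closure {y : Q | ∃ g, y = τ g * g⁻¹} ∧ g = c * m) ∧
    (∀ m ∈ Subgroup.closure {y : Q | ∃ g, y = τ g * g⁻¹},
      (∀ m' ∈ Subgroup.closure {y : Q | ∃ g, y = τ g * g⁻¹}, m * m' = m' * m) →
        m ∈ Subgroup.center Q) ∧
    (∀ c, τ c = c → (∀ c', τ c' = c' → c * c' = c' * c) → c ∈ Subgroup.center Q) ∧
    (∀ m ∈ Subgroup.closure {y : Q | ∃ g, y = τ g * g⁻¹}, τ m * m ∈ Subgroup.center Q) ∧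
    (∀ g, g ^ 2 ∈ Subgroup.center Q → g ∈ Subgroup.center Q) := by
  obtain ⟨e, he⟩ := hodd
  have hsq : ∀ g : Q, (g ^ 2) ^ (e + 1) = g := by
    intro g
    rw [← pow_mul, show 2 * (e + 1) = Nat.card Q + 1 by omega, pow_succ, pow_card_eq_one', one_mul]
  have hττ : ∀ g, τ (τ g) = g := by
    intro g
    have : (τ ^ 2) g = g := by rw [hτ2]; rfl
    rwa [pow_two, MulAut.mul_apply] at this
  obtain ⟨M, hM⟩ : ∃ M, M = Subgroup.closure {y : Q | ∃ g, y = τ g * g⁻¹} := ⟨_, rfl⟩
  rw [← hM]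
  have hZc : ∀ z ∈ Subgroup.center Q, ∀ g, z * g = g * z :=
    fun z hz g => (Subgroup.mem_center_iff.1 hz g).symm
  have hgenM : ∀ g, τ g * g⁻¹ ∈ M := by
    intro g; rw [hM]; exact Subgroup.subset_closure ⟨g, rfl⟩
  have h1 : ∀ c, τ c = c → ∀ m ∈ M, c * m = m * c := by
    intro c hc m hm
    have hle : M ≤ Subgroup.centralizer {c} := by
      rw [hM, Subgroup.closure_le]
      rintro _ ⟨g, rfl⟩
      rw [SetLike.mem_coe, Subgroup.mem_centralizer_singleton_iff]
      obtain ⟨z, hz⟩ : ∃ z, z = ⁅c, g⁆ := ⟨_, rfl⟩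
      have hzc : z ∈ Subgroup.center Q := hz ▸ cl2 c g
      have hzi : z⁻¹ ∈ Subgroup.center Q := Subgroup.inv_mem _ hzc
      have he1 : c * g = z * g * c := by rw [hz, commutatorElement_def]; group
      have he2 : c * τ g = z * τ g * c := by
        have := congrArg τ he1
        simp only [map_mul, hc, hτZ z hzc] at this
        exact this
      have he3 : c * g⁻¹ = z⁻¹ * g⁻¹ * c := by
        calc c * g⁻¹ = g⁻¹ * z⁻¹ * c := by rw [hz, commutatorElement_def]; group
          _ = z⁻¹ * g⁻¹ * c := by rw [hZc z⁻¹ hzi g⁻¹]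
      symm
      calc c * (τ g * g⁻¹) = (c * τ g) * g⁻¹ := by group
        _ = z * τ g * (c * g⁻¹) := by rw [he2]; group
        _ = z * (τ g * z⁻¹) * g⁻¹ * c := by rw [he3]; group
        _ = z * (z⁻¹ * τ g) * g⁻¹ * c := by rw [hZc z⁻¹ hzi (τ g)]
        _ = τ g * g⁻¹ * c := by group
    have := hle hm
    rw [Subgroup.mem_centralizer_singleton_iff] at this
    exact this.symm
  have h2 : ∀ g, ∃ c m, τ c = c ∧ m ∈ M ∧ g = c * m := by
    intro g
    obtain ⟨h, hh⟩ : ∃ h, h ^ 2 = g := ⟨g ^ (e + 1), by rw [← pow_mul, mul_comm, pow_mul, hsq]⟩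
    refine ⟨h * τ h, (τ h)⁻¹ * h, ?_, ?_, ?_⟩
    · obtain ⟨z, hz⟩ : ∃ z, z = ⁅(τ h)⁻¹, h⁻¹⁆ := ⟨_, rfl⟩
      have hzc : z ∈ Subgroup.center Q := hz ▸ cl2 _ _
      have e1 : τ (h * τ h) = h * τ h * z := by
        rw [map_mul, hττ, hz, commutatorElement_def]; group
      have e2 : h * τ h = h * τ h * z ^ 2 := by
        have := congrArg τ e1
        rw [hττ, map_mul, hτZ z hzc, e1] at this
        rw [pow_two, ← mul_assoc]; exact this
      have e3 : z ^ 2 = 1 := by
        have := mul_left_cancel (a := h * τ h) (b := 1) (c := z ^ 2) (by rw [mul_one]; exact e2)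
        exact this.symm
      have e4 : z = 1 := by rw [← hsq z, e3, one_pow]
      rw [e1, e4, mul_one]
    · have := hgenM h⁻¹
      rwa [map_inv, inv_inv] at this
    · rw [← hh, pow_two]; group
  have h3 : ∀ m ∈ M, (∀ m' ∈ M, m * m' = m' * m) → m ∈ Subgroup.center Q := by
    intro m hm hcomm
    rw [Subgroup.mem_center_iff]
    intro g
    obtain ⟨c, m', hc, hm', rfl⟩ := h2 g
    rw [mul_assoc, ← hcomm m' hm', ← mul_assoc, h1 c hc m hm, mul_assoc]
  have h4 : ∀ c, τ c = c → (∀ c', τ c' = c' → c * c' = c' * c) → c ∈ Subgroup.center Q := by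
    intro c hc hcomm
    rw [Subgroup.mem_center_iff]
    intro g
    obtain ⟨c', m', hc', hm', rfl⟩ := h2 g
    rw [mul_assoc, ← h1 c hc m' hm', ← mul_assoc, ← hcomm c' hc', mul_assoc]
  have h5 : ∀ m ∈ M, τ m * m ∈ Subgroup.center Q := by
    let S : Subgroup Q :=
      { carrier := {m | τ m * m ∈ Subgroup.center Q}
        one_mem' := by simp
        mul_mem' := by
          intro a b ha hb
          simp only [Set.mem_ofPred_eq] at ha hb ⊢
          have : τ (a * b) * (a * b) = ⁅τ b, a⁆ * ((τ a * a) * (τ b * b)) := by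
            have hz := hZc _ (cl2 (τ b) a) (τ a)
            calc τ (a * b) * (a * b) = τ a * (⁅τ b, a⁆ * a * τ b) * b := by
                  rw [map_mul, commutatorElement_def]; group
              _ = (τ a * ⁅τ b, a⁆) * a * τ b * b := by group
              _ = (⁅τ b, a⁆ * τ a) * a * τ b * b := by rw [hz]
              _ = _ := by group
          rw [this]
          exact Subgroup.mul_mem _ (cl2 _ _) (Subgroup.mul_mem _ ha hb)
        inv_mem' := by
          intro a ha
          simp only [Set.mem_ofPred_eq] at ha ⊢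
          have : τ a⁻¹ * a⁻¹ = (⁅a, τ a⁆ * (τ a * a))⁻¹ := by
            rw [map_inv, commutatorElement_def]; group
          rw [this]
          exact Subgroup.inv_mem _ (Subgroup.mul_mem _ (cl2 _ _) ha) }
    have hle : M ≤ S := by
      rw [hM, Subgroup.closure_le]
      rintro _ ⟨g, rfl⟩
      show τ (τ g * g⁻¹) * (τ g * g⁻¹) ∈ Subgroup.center Q
      have : τ (τ g * g⁻¹) * (τ g * g⁻¹) = 1 := by
        rw [map_mul, hττ, map_inv]; group
      rw [this]; exact Subgroup.one_mem _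
    intro m hm
    exact hle hm
  refine ⟨h1, h2, h3, h4, h5, ?_⟩
  intro g hg
  rw [← hsq g]
  exact Subgroup.pow_mem _ hg _

end Cfsg.Agent.Lib.Helper85.Gross
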