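import Mathlib

set_option autoImplicit false
set_option linter.unusedSectionVars false
set_option linter.unusedVariables false

namespace Cfsg.Agent.Lib.Helper85.Gross

open scoped commutatorElement

/-- an automorphism `β` with `β g = d g`, `β d = d` has `β^i g = d^i g` -/
theorem M1_pow_apply {Q : Type*} [Group Q] (β : MulAut Q) (g d : Q) (h1 : β g = d * g)
    (h2 : β d = d) (i : ℕ) : (β ^ i) g = d ^ i * g := by
  induction i with
  | zero => simp
  | succ i ih =>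
    rw [pow_succ', MulAut.mul_apply, ih, map_mul, map_pow, h2, h1, pow_succ, mul_assoc]

/-- coprime orders -/
theorem M1_eq_one {Q : Type*} [Group Q] {q s : ℕ} (hq : q.Prime) (hs : s.Prime) (hqs : q ≠ s)
    (d : Q) (j k : ℕ) (h1 : d ^ q ^ j = 1) (h2 : d ^ s ^ k = 1) : d = 1 := by
  have a1 := orderOf_dvd_of_pow_eq_one h1
  have a2 := orderOf_dvd_of_pow_eq_one h2
  have hc : Nat.Coprime (q ^ j) (s ^ k) :=
    Nat.Coprime.pow _ _ ((Nat.coprime_primes hq hs).2 hqs)
  exact orderOf_eq_one_iff.1 (Nat.eq_one_of_dvd_coprimes hc a1 a2)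

/-- [M1] -/
theorem M1 {Q S : Type*} [Group Q] [Finite Q] [Group S] [Finite S] {q s : ℕ}
    (hq : q.Prime) (hs : s.Prime) (hqs : q ≠ s) (hQ : IsPGroup q Q) (hS : IsPGroup s S)
    (σ : MulAut Q) (σS τS : MulAut S) (hcommS : σS * τS = τS * σS)
    (φ : S →* MulAut Q) (hφ : ∀ a, φ (σS a) = σ * φ a * σ⁻¹)
    (hmin : ∀ H : Subgroup Q, H ≠ ⊤ → (∀ g ∈ H, σ g ∈ H) → (∀ a, ∀ g ∈ H, φ a g ∈ H) →
      ∀ a, ∀ g ∈ H, φ (τS a) g = φ a g)
    (hne : ∃ a, φ (τS a) ≠ φ a) :
    Subgroup.closure {y : Q | ∃ a g, y = φ (τS a * a⁻¹) g * g⁻¹} = ⊤ ∧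
    (∀ X : Subgroup Q, X ≠ ⊤ → X.Characteristic →
      X ≤ Subgroup.center Q ∧ ∀ a, ∀ z ∈ X, φ (τS a * a⁻¹) z = z) := by
  classical
  set D : Subgroup Q := Subgroup.closure {y : Q | ∃ a g, y = φ (τS a * a⁻¹) g * g⁻¹} with hD
  have hgen : ∀ a g, φ (τS a * a⁻¹) g * g⁻¹ ∈ D := fun a g => Subgroup.subset_closure ⟨a, g, rfl⟩
  have hfix : ∀ H : Subgroup Q, H ≠ ⊤ → (∀ g ∈ H, σ g ∈ H) → (∀ a, ∀ g ∈ H, φ a g ∈ H) →
      ∀ a, ∀ g ∈ H, φ (τS a * a⁻¹) g = g := by
    intro H h1 h2 h3 a g hg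
    have := hmin H h1 h2 h3 a (φ a⁻¹ g) (h3 _ _ hg)
    rw [map_mul, MulAut.mul_apply, this, ← MulAut.mul_apply, ← map_mul]
    simp
  have hDσ : ∀ g ∈ D, σ g ∈ D := by
    intro g hg
    induction hg using Subgroup.closure_induction with
    | mem x hx =>
      obtain ⟨a, g, rfl⟩ := hx
      have h1 : σ (φ (τS a * a⁻¹) g) = φ (σS (τS a * a⁻¹)) (σ g) := by
        rw [hφ]; simp
      have h2 : σS (τS a * a⁻¹) = τS (σS a) * (σS a)⁻¹ := by
        rw [map_mul, map_inv]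
        congr 1
        exact DFunLike.congr_fun hcommS a
      rw [map_mul, map_inv, h1, h2]
      exact hgen _ _
    | one => rw [map_one]; exact D.one_mem
    | mul x y _ _ hx hy => rw [map_mul]; exact D.mul_mem hx hy
    | inv x _ hx => rw [map_inv]; exact D.inv_mem hx
  have hDφ : ∀ t, ∀ g ∈ D, φ t g ∈ D := by
    intro t g hg
    induction hg using Subgroup.closure_induction with
    | mem x hx =>
      obtain ⟨a, g, rfl⟩ := hx
      -- `h = φ t g`
      set h := φ t g with hh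
      set h' := φ (τS (t * a) * (t * a)⁻¹) h with hh'
      set h'' := φ (τS t * t⁻¹)⁻¹ h' with hh''
      have e1 : t * (τS a * a⁻¹) = (τS t * t⁻¹)⁻¹ * (τS (t * a) * (t * a)⁻¹) * t := by
        rw [map_mul]; group
      have e2 : φ t (φ (τS a * a⁻¹) g) = h'' := by
        rw [← MulAut.mul_apply, ← map_mul, e1, map_mul, map_mul, MulAut.mul_apply,
          MulAut.mul_apply]
      have e3 : φ (τS t * t⁻¹) h'' = h' := by
        rw [hh'', ← MulAut.mul_apply, ← map_mul]; simp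
      have e4 : φ t (φ (τS a * a⁻¹) g * g⁻¹) =
          (φ (τS t * t⁻¹) h'' * h''⁻¹)⁻¹ * (φ (τS (t * a) * (t * a)⁻¹) h * h⁻¹) := by
        rw [map_mul, map_inv, e2, e3, ← hh', ← hh]; group
      rw [e4]
      exact D.mul_mem (D.inv_mem (hgen _ _)) (hgen _ _)
    | one => rw [map_one]; exact D.one_mem
    | mul x y _ _ hx hy => rw [map_mul]; exact D.mul_mem hx hy
    | inv x _ hx => rw [map_inv]; exact D.inv_mem hx
  have hDtop : D = ⊤ := by
    by_contra hDne
    obtain ⟨a, ha⟩ := hne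
    apply ha
    have hf := hfix D hDne hDσ hDφ
    have hb : φ (τS a * a⁻¹) = 1 := by
      ext g
      set d := φ (τS a * a⁻¹) g * g⁻¹ with hd
      have hdD : d ∈ D := hgen a g
      have h1 : φ (τS a * a⁻¹) g = d * g := by rw [hd]; group
      have h2 : φ (τS a * a⁻¹) d = d := hf a d hdD
      obtain ⟨k, hk⟩ := hS (τS a * a⁻¹)
      obtain ⟨j, hj⟩ := hQ d
      have h3 := M1_pow_apply _ g d h1 h2 (s ^ k)
      rw [← map_pow, hk, map_one, MulAut.one_apply] at h3
      have h4 : d ^ s ^ k = 1 := by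
        have : d ^ s ^ k * g = 1 * g := by rw [← h3, one_mul]
        exact mul_right_cancel this
      have h5 : d = 1 := M1_eq_one hq hs hqs d j k hj h4
      rw [h1, h5, one_mul, MulAut.one_apply]
    rw [map_mul, map_inv, mul_inv_eq_one] at hb
    exact hb
  refine ⟨hDtop, ?_⟩
  intro X hX hXc
  have hXinv : ∀ (α : MulAut Q), ∀ g ∈ X, α g ∈ X := by
    intro α g hg
    have := (Subgroup.characteristic_iff_map_eq.1 hXc) α
    rw [← this]
    exact Subgroup.mem_map_of_mem _ hg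
  have hf := hfix X hX (hXinv σ) (fun a => hXinv (φ a))
  refine ⟨?_, hf⟩
  intro y hy
  have hXn : X.Normal := inferInstance
  have hle : D ≤ Subgroup.centralizer {y} := by
    rw [hD, Subgroup.closure_le]
    rintro _ ⟨a, g, rfl⟩
    have h0 : g⁻¹ * y * g ∈ X := by
      have := hXn.conj_mem y hy g⁻¹
      rwa [inv_inv] at this
    have h1 : φ (τS a * a⁻¹) (g⁻¹ * y * g) = g⁻¹ * y * g := hf a _ h0
    rw [map_mul, map_mul, map_inv, hf a y hy] at h1
    rw [SetLike.mem_coe, Subgroup.mem_centralizer_singleton_iff]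
    set u := φ (τS a * a⁻¹) g with hu
    calc u * g⁻¹ * y = u * (g⁻¹ * y * g) * g⁻¹ := by group
      _ = u * (u⁻¹ * y * u) * g⁻¹ := by rw [h1]
      _ = y * (u * g⁻¹) := by group
  rw [hDtop] at hle
  rw [Subgroup.mem_center_iff]
  intro g
  have := hle (Subgroup.mem_top g)
  rw [Subgroup.mem_centralizer_singleton_iff] at this
  exact this

end Cfsg.Agent.Lib.Helper85.Gross
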