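import Mathlib
import Cfsg.Agent.Lib.Helper85.Gross.M1

set_option autoImplicit false
set_option linter.unusedSectionVars false
set_option linter.unusedVariables false

namespace Cfsg.Agent.Lib.Helper85.Gross

open scoped commutatorElement

/-- the subgroup generated by the `q`-th powers of a nontrivial finite `q`-group is proper -/
theorem M1b_pow_ne_top {Q : Type*} [Group Q] [Finite Q] {q : ℕ} (hq : q.Prime)
    (hQ : IsPGroup q Q) (hc : commutator Q ≠ ⊤) :
    Subgroup.closure {y : Q | ∃ g : Q, y = g ^ q} ≠ ⊤ := by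
  intro htop
  haveI : Fact q.Prime := ⟨hq⟩
  -- the abelianization is a nontrivial q-group
  have hsurj : Function.Surjective (Abelianization.of : Q →* Abelianization Q) :=
    QuotientGroup.mk_surjective
  have hA : IsPGroup q (Abelianization Q) := hQ.of_surjective _ hsurj
  have hnt : Nontrivial (Abelianization Q) := by
    by_contra hn
    rw [not_nontrivial_iff_subsingleton] at hn
    apply hc
    rw [eq_top_iff]
    intro g _
    have : (Abelianization.of g : Abelianization Q) = 1 := Subsingleton.elim _ _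
    exact (QuotientGroup.eq_one_iff g).1 this
  have hrange : (powMonoidHom q : Abelianization Q →* Abelianization Q).range = ⊤ := by
    rw [eq_top_iff, ← MonoidHom.range_eq_top.2 hsurj, MonoidHom.range_eq_map, ← htop,
      MonoidHom.map_closure, Subgroup.closure_le]
    rintro _ ⟨y, ⟨g, rfl⟩, rfl⟩
    exact ⟨Abelianization.of g, by simp⟩
  have hsur : Function.Surjective (powMonoidHom q : Abelianization Q →* Abelianization Q) :=
    MonoidHom.range_eq_top.1 hrange
  have hinj : Function.Injective (powMonoidHom q : Abelianization Q →* Abelianization Q) :=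
    Finite.injective_iff_surjective.2 hsur
  obtain ⟨a, ha⟩ := exists_ne (1 : Abelianization Q)
  obtain ⟨k, hk⟩ := hA a
  -- a^(q^k) = 1 implies a = 1 by injectivity
  have : ∀ k : ℕ, ∀ a : Abelianization Q, a ^ q ^ k = 1 → a = 1 := by
    intro k
    induction k with
    | zero => intro a h; simpa using h
    | succ k ih =>
      intro a h
      apply ih
      apply hinj
      simp only [powMonoidHom_apply, one_pow]
      rw [← pow_mul, ← pow_succ]
      exact h
  exact ha (this k a hk)

/-- [M1b] -/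
theorem M1b {Q S : Type*} [Group Q] [Finite Q] [Group S] [Finite S] {q s : ℕ}
    (hq : q.Prime) (hs : s.Prime) (hqs : q ≠ s) (hQ : IsPGroup q Q) (hS : IsPGroup s S)
    (σ : MulAut Q) (σS τS : MulAut S) (hcommS : σS * τS = τS * σS)
    (φ : S →* MulAut Q) (hφ : ∀ a, φ (σS a) = σ * φ a * σ⁻¹)
    (hmin : ∀ H : Subgroup Q, H ≠ ⊤ → (∀ g ∈ H, σ g ∈ H) → (∀ a, ∀ g ∈ H, φ a g ∈ H) →
      ∀ a, ∀ g ∈ H, φ (τS a) g = φ a g)
    (hne : ∃ a, φ (τS a) ≠ φ a) (hZ : Subgroup.center Q ≠ ⊤) :
    (∀ g h : Q, ⁅g, h⁆ ∈ Subgroup.center Q) ∧ (∀ g : Q, g ^ q ∈ Subgroup.center Q) ∧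
    (∀ a, ∀ z ∈ Subgroup.center Q, φ (τS a * a⁻¹) z = z) := by
  haveI : Fact q.Prime := ⟨hq⟩
  obtain ⟨-, h2⟩ := M1 hq hs hqs hQ hS σ σS τS hcommS φ hφ hmin hne
  have hnt : Nontrivial Q := by
    by_contra hn
    rw [not_nontrivial_iff_subsingleton] at hn
    exact hZ (Subsingleton.elim _ _)
  haveI : Group.IsNilpotent Q := hQ.isNilpotent
  have hc : commutator Q ≠ ⊤ := (Group.IsSolvable.commutator_lt_top_of_nontrivial Q).ne
  have hcchar : (commutator Q).Characteristic := by
    unfold commutator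
    infer_instance
  have hpchar : (Subgroup.closure {y : Q | ∃ g : Q, y = g ^ q}).Characteristic := by
    rw [Subgroup.characteristic_iff_map_le]
    intro ψ
    rw [MonoidHom.map_closure, Subgroup.closure_le]
    rintro _ ⟨y, ⟨g, rfl⟩, rfl⟩
    apply Subgroup.subset_closure
    exact ⟨ψ g, by simp⟩
  refine ⟨fun g h => ?_, fun g => ?_, fun a z hz => ?_⟩
  · exact (h2 _ hc hcchar).1 (Subgroup.commutator_mem_commutator (Subgroup.mem_top g)
      (Subgroup.mem_top h))
  · exact (h2 _ (M1b_pow_ne_top hq hQ hc) hpchar).1 (Subgroup.subset_closure ⟨g, rfl⟩)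
  · exact (h2 _ hZ inferInstance).2 a z hz

end Cfsg.Agent.Lib.Helper85.Gross
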